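import Cfsg.Agent.H112.Bal.EndA
import Cfsg.Agent.H112.Bal.EndB
import Cfsg.Agent.H508.Tor.Toral
import Cfsg.Agent.BpExc.RowsUntw
import Cfsg.Agent.S1054
import Cfsg.Agent.S1055

/-!
# S2188-X6, ends (helper112): instances over the algebraic closure of `ZMod r`
-/

set_option autoImplicit false
set_option linter.unusedSectionVars false

namespace Cfsg.Agent.H112.Bal

open CoxeterSystem Cfsg Cfsg.Lie Cfsg.Lie.ChevalleyDatum
open Cfsg.Agent.ChevalleyStructure Cfsg.Agent.ChevalleyStructure.Elts Cfsg.Agent.ChevalleyStructure.CoxeterGeom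
  Cfsg.Agent.ChevalleyStructure.CoxeterGeomTypes Cfsg.Agent.ChevalleyStructure.NPerm
open Cfsg.Agent.Nodes.RGDChev Cfsg.Agent.KFacts.RgdField Cfsg.Agent.KFacts.RgdChevCoord Cfsg.Agent.BpExc.TowChev
  Cfsg.Agent.BpExc.TorCent Cfsg.Agent.BpExc.Tow Cfsg.Agent.BpExc.Fr Cfsg.Agent.BpExc.Pair Cfsg.Agent.BpExc.LangFr
  Cfsg.Agent.H469.Exc Cfsg.Agent.H85.Exc

universe u v

variable {D : ChevalleyDatum} {l : ℕ} {M : CoxeterMatrix (Fin l)} (hp : IsType D l M)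
  {W : Type v} [Group W] (cs : CoxeterSystem M W) {r : ℕ} [Fact r.Prime]

/-- `D.group (KK r)` is simple, type `B₂` excluded. -/
theorem simple_KK (hp : IsType D l M) (hB : D ≠ chevB2) :
    IsSimpleGroup ↥(D.group (KK r)) ∧ ¬ IsMulCommutative ↥(D.group (KK r)) := by
  have h := hp
  simp only [IsType, typeList, List.mem_cons, List.not_mem_nil, or_false, Prod.mk.injEq] at h
  have hG2 : IsSimpleGroup ↥(chevG2.group (KK r)) ∧ ¬ IsMulCommutative ↥(chevG2.group (KK r)) := by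
    refine S1055.result ?_
    have hinf : Infinite (KK r) := inferInstance
    classical
    obtain ⟨a, ha⟩ := Infinite.exists_notMem_finset ({0, 1} : Finset (KK r))
    simp only [Finset.mem_insert, Finset.mem_singleton, not_or] at ha
    exact ⟨a, ha⟩
  rcases h with ⟨rfl, -⟩ | ⟨rfl, -⟩ | ⟨rfl, -⟩ | ⟨rfl, -⟩ | ⟨rfl, -⟩ | ⟨rfl, -⟩ | ⟨rfl, -⟩
  · exact hG2
  · exact absurd rfl hB
  all_goals exact S1054.result _ (by simp)

include hp in
/-- `5 ≤ p`: torality of rank two, `p = 5` in type `E₈` as a hypothesis. -/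
theorem toral_KK {p : ℕ} (hpp : p.Prime) (h5 : 5 ≤ p) (hpr : p ≠ r)
    (h8 : D = chevE8 → p = 5 → ∀ E : Subgroup ↥(D.group (KK r)), (∀ x ∈ E, x ^ p = 1) →
      (∀ x ∈ E, ∀ y ∈ E, x * y = y * x) → Nat.card ↥E = p ^ 2 → ∃ z : ↥(D.group (KK r)), ∀ x ∈ E, z * x * z⁻¹ ∈ TT D (KK r))
    (E : Subgroup ↥(D.group (KK r))) (hEp : ∀ x ∈ E, x ^ p = 1) (hEc : ∀ x ∈ E, ∀ y ∈ E, x * y = y * x)
    (hE : Nat.card ↥E = p ^ 2) : ∃ z : ↥(D.group (KK r)), ∀ x ∈ E, z * x * z⁻¹ ∈ TT D (KK r) := by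
  by_cases h : D = chevE8 ∧ p = 5
  · exact h8 h.1 h.2 E hEp hEc hE
  · have h1 : D = chevE8 → p ≠ 5 := fun a b => h ⟨a, b⟩
    have hfin : Finite ↥E := Nat.finite_of_card_ne_zero (by rw [hE]; exact pow_ne_zero 2 hpp.ne_zero)
    have hpf : Fact p.Prime := ⟨hpp⟩
    have ht := H508.Tor.tors_five hp hpp h5 h1
    exact H795.TorSub.exists_toral_abelian hp r (locFin r) hpp hpr ht.1 ht.2 (IsPGroup.of_card (n := 2) hE) hEc

/-- **`5 ≤ p`.** -/
theorem balIn_five (hB : D ≠ chevB2) {p : ℕ} (hpp : p.Prime) (h5 : 5 ≤ p) (hpr : p ≠ r)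
    (h8 : D = chevE8 → p = 5 → ∀ E : Subgroup ↥(D.group (KK r)), (∀ x ∈ E, x ^ p = 1) →
      (∀ x ∈ E, ∀ y ∈ E, x * y = y * x) → Nat.card ↥E = p ^ 2 → ∃ z : ↥(D.group (KK r)), ∀ x ∈ E, z * x * z⁻¹ ∈ TT D (KK r))
    (hSS : SS hp cs (KK r) r p) : BalIn hp cs (KK r) r p :=
  balIn_of_SS hp cs (locFin r) (simple_KK hp hB).1 (simple_KK hp hB).2 hpp hSS (toral_KK hp hpp h5 hpr h8)

/-- **`p = 3`.** -/
theorem balIn_three' (hpr : 3 ≠ r) (hS3 : S3 hp cs (KK r) r) : BalIn hp cs (KK r) r 3 := by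
  refine balIn_three hp cs ?_ hS3 fun x hx => ?_
  · intro h
    have h1 : ((3 : ℕ) : KK r) = 0 := by exact_mod_cast h
    have h2 := (CharP.cast_eq_zero_iff (KK r) r 3).1 h1
    exact hpr ((Nat.prime_dvd_prime_iff_eq (Fact.out : r.Prime) Nat.prime_three).1 h2).symm
  · obtain ⟨z, hz⟩ := BpExc.TorAll.exists_toral' hp r (y := x) Nat.prime_three hpr hx
    exact ⟨z⁻¹, by rwa [inv_inv]⟩

end Cfsg.Agent.H112.Bal
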